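import Cfsg.Agent.L.Golay.Octads
/-!
Transitivity on an octad with five points and a point outside.
-/
set_option autoImplicit false
namespace CfsgL.Golay
open Cfsg CfsgL.Comp Finset
open scoped Pointwise

theorem mem_O0_iff : ∀ p : GolayPt, p ∉ O0 → notIn [23, 0, 1, 2, 3, 5, 14, 17] (toIdx p) = true := by
  decide +kernel

theorem ptst_base {q : GolayPt} (hq : q ∉ O0) : ∃ g ∈ ptst O0, g (bp 4) = q := by
  obtain ⟨g, hg, h1, h2⟩ := tr_exists trOK6 trCov6 (by norm_num) q (mem_O0_iff q hq)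
  refine ⟨g, ?_, h2⟩
  rw [ptst_O0, mem_fx]
  refine ⟨hg, fun p hp => ?_⟩
  have key : ∀ p ∈ [bp 5, bp 3, bp 2, bp 1, bp 0, bp 23], toIdx p ∈ [23, 0, 1, 2, 3, 5] := by
    decide +kernel
  exact h1 _ (key p hp) p rfl

theorem ptst_trans {o : Finset GolayPt} (ho : o ∈ octads) {p q : GolayPt} (hp : p ∉ o) (hq : q ∉ o) :
    ∃ g ∈ ptst o, g p = q := by
  obtain ⟨k, hk, rfl⟩ := octad_trans O0_mem ho
  have hp' : k⁻¹ p ∉ O0 := fun h => hp (by
    have := Finset.smul_mem_smul_finset (a := k) h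
    rwa [Equiv.Perm.smul_def, show k (k⁻¹ p) = p from k.apply_symm_apply p] at this)
  have hq' : k⁻¹ q ∉ O0 := fun h => hq (by
    have := Finset.smul_mem_smul_finset (a := k) h
    rwa [Equiv.Perm.smul_def, show k (k⁻¹ q) = q from k.apply_symm_apply q] at this)
  obtain ⟨a, ha, ha'⟩ := ptst_base hp'
  obtain ⟨b, hb, hb'⟩ := ptst_base hq'
  refine ⟨k * (b * a⁻¹) * k⁻¹, ?_, ?_⟩
  · have h := (ptst O0).mul_mem hb ((ptst O0).inv_mem ha)
    exact (ptstMap hk O0 ⟨_, h⟩).2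
  · have h1 : a⁻¹ (k⁻¹ p) = bp 4 := by rw [Equiv.Perm.inv_eq_iff_eq]; exact ha'.symm
    rw [Equiv.Perm.mul_apply, Equiv.Perm.mul_apply, Equiv.Perm.mul_apply, h1, hb']
    exact k.apply_symm_apply q

theorem oct_pt_trans {O O' : Finset GolayPt} (hO : O ∈ octads) (hO' : O' ∈ octads)
    (A A' : Fin 5 ↪ GolayPt) (hA : ∀ i, A i ∈ O) (hA' : ∀ i, A' i ∈ O') {r r' : GolayPt}
    (hr : r ∉ O) (hr' : r' ∉ O') :
    ∃ σ ∈ M24, (∀ i, σ (A i) = A' i) ∧ σ • O = O' ∧ σ r = r' := by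
  obtain ⟨σ, hσ, hσA⟩ := five_trans_emb A A'
  have h1 : σ • O = O' := by
    apply octad_eq_of_emb ((smul_octad hσ).2 hO) hO' A'
    · intro i
      rw [← hσA]
      exact Finset.smul_mem_smul_finset (hA i)
    · exact hA'
  have h2 : σ r ∉ O' := by
    rw [← h1]
    intro h
    exact hr ((Finset.smul_mem_smul_finset_iff σ).1 h)
  obtain ⟨τ, hτ, hτr⟩ := ptst_trans hO' h2 hr'
  rw [mem_ptst] at hτ
  refine ⟨τ * σ, M24.mul_mem hτ.1 hσ, fun i => ?_, ?_, hτr⟩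
  · rw [Equiv.Perm.mul_apply, hσA, hτ.2 _ (hA' i)]
  · rw [mul_smul, h1]
    ext x
    constructor
    · intro hx
      obtain ⟨y, hy, rfl⟩ := Finset.mem_smul_finset.1 hx
      rw [Equiv.Perm.smul_def, hτ.2 y hy]; exact hy
    · intro hx
      rw [← hτ.2 x hx]
      exact Finset.smul_mem_smul_finset hx

end CfsgL.Golay
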